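import Cfsg.Agent.H705.Dl.PsMult
import Cfsg.Agent.H593.GlaubermanP
import Cfsg.Agent.Characters.Linear

/-!
# Principal series characters have degree divisible by `r` (helper705, task DL-PS)

`dvd_degree_of_principal` : `R` a root group datum in characteristic `r` for the finite group `Y`, the non-simple
positive root groups in `[U, U]`. A nontrivial irreducible constituent of `1_B^Y` has degree divisible by `r`.
-/

set_option autoImplicit false
set_option linter.unusedSectionVars false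

namespace Cfsg.Agent.H705.Dl.PsRgd

open CoxeterSystem Cfsg.Agent.ChevalleyStructure.CoxeterGeom Cfsg.Agent.Tits.Roots Cfsg.Agent.Tits.Core
  Cfsg.Agent.Tits.Exchange Cfsg.Agent.Nodes.Reps Cfsg.Agent.Nodes.BNOf Cfsg.Agent.Nodes.StabComb
  Cfsg.Agent.Nodes.Bruhat Cfsg.Agent.Nodes.OppDec Cfsg.Agent.Nodes.LeviDec
open Cfsg Cfsg.Agent.H249 Cfsg.Agent.H249.OfRGD Cfsg.Agent.Characters.Core
open Cfsg.Agent.H705.Dl.Ps Cfsg.Agent.H705.Dl.PsCox
open Cfsg.Agent.Omega.EH3.Kf.Lev (CommGen)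
open scoped commutatorElement Classical ComplexConjugate

section abs

variable {Y : Type*} [Group Y] {U : Subgroup Y}

/-- the extension by zero of a linear character -/
noncomputable def ex (l : U →* ℂˣ) (g : Y) : ℂ := if hg : g ∈ U then (l ⟨g, hg⟩ : ℂ) else 0

theorem ex_mem (l : U →* ℂˣ) {g : Y} (hg : g ∈ U) : ex l g = (l ⟨g, hg⟩ : ℂ) := dif_pos hg

theorem chr_ex (l : U →* ℂˣ) : Chr U (ex l) := by
  refine ⟨?_, fun u hu v hv => ?_⟩
  · rw [ex_mem l (one_mem U)]
    have : (⟨1, one_mem U⟩ : U) = 1 := rfl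
    rw [this, map_one, Units.val_one]
  · rw [ex_mem l hu, ex_mem l hv, ex_mem l (mul_mem hu hv)]
    have : (⟨u * v, mul_mem hu hv⟩ : U) = ⟨u, hu⟩ * ⟨v, hv⟩ := rfl
    rw [this, map_mul, Units.val_mul]

instance finite_hom [Finite Y] : Finite (U →* ℂˣ) := by
  have := finite_irr (G := U)
  exact Finite.of_equiv _ (Characters.Linear.linearEquiv U).symm

theorem mu_ex [Fintype Y] (l : U →* ℂˣ) (χ : Y → ℂ) :
    mu U (ex l) χ = classInner (fun u : U => χ u) (fun u : U => (l u : ℂ)) := by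
  rw [mu, sum_ite_mem U (fun g => ex l g⁻¹ * χ g), classInner_def]
  congr 1
  refine Finset.sum_congr rfl fun u _ => ?_
  rw [ex_mem l (inv_mem u.2), mul_comm]
  congr 1
  rw [← isCharacter_apply_inv (Characters.Linear.isCharacter_hom l) u]
  rfl

/-- **The degree modulo `r`.** -/
theorem deg_mod [Fintype Y] {r : ℕ} (hr : r.Prime) (hU : IsPGroup r U) [Fintype (U →* ℂˣ)] {χ : Y → ℂ}
    (hχ : IsCharacter Y χ) : ∃ k : ℕ, χ 1 = ((r * k + ∑ l : U →* ℂˣ, mn U (ex l) χ : ℕ) : ℂ) := by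
  have : Fact r.Prime := ⟨hr⟩
  have := finite_irr (G := U)
  have := Fintype.ofFinite (IrrCharacter U)
  have hψ : IsCharacter U (fun u : U => χ u) := isCharacter_comp U.subtype hχ
  obtain ⟨c, hc⟩ := exists_nat_comb hψ
  -- the coefficients at the linear characters
  have h1 : ∀ l : U →* ℂˣ, mn U (ex l) χ = c (Characters.Linear.linearEquiv U l).1 := by
    intro l
    have h2 : (mn U (ex l) χ : ℂ) = c (Characters.Linear.linearEquiv U l).1 := by
      rw [← mn_spec (chr_ex l) hχ, mu_ex, hc]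
      have h3 := classInner_sum_nsmul_irr (G := U) c (Characters.Linear.linearEquiv U l).1
      exact h3
    exact_mod_cast h2
  -- the degrees
  have hdeg : ∀ φ : IrrCharacter U, ((φ : U → ℂ) 1 = 1) ∨ ∃ k : ℕ, (φ : U → ℂ) 1 = ((r * k : ℕ) : ℂ) := by
    intro φ
    have h2 : charDegree (φ : U → ℂ) ∣ Nat.card U := H593.GlaubermanP.charDegree_dvd φ.2
    have h3 : (φ : U → ℂ) 1 = (charDegree (φ : U → ℂ) : ℂ) := Cfsg.Agent.Blocks.Basic.irr_one_eq_charDegree φ.2
    obtain ⟨a, ha⟩ := IsPGroup.iff_card.1 hU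
    rw [ha] at h2
    obtain ⟨b, -, hb⟩ := (Nat.dvd_prime_pow hr).1 h2
    rcases b with _ | b
    · left; rw [h3, hb, pow_zero, Nat.cast_one]
    · right
      exact ⟨r ^ b, by rw [h3, hb, pow_succ, mul_comm]⟩
  choose! k hk using fun φ (h : (φ : IrrCharacter U).1 1 ≠ 1) => (hdeg φ).resolve_left h
  refine ⟨∑ φ : IrrCharacter U, if (φ : U → ℂ) 1 = 1 then 0 else c φ * k φ, ?_⟩
  have h4 : χ 1 = ∑ φ : IrrCharacter U, (c φ : ℂ) * (φ : U → ℂ) 1 := by
    have h5 := congrFun hc 1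
    rw [Finset.sum_apply] at h5
    refine Eq.trans h5 ?_
    exact Finset.sum_congr rfl fun φ _ => by rw [Pi.smul_apply, nsmul_eq_mul]
  have h5 : ∑ l : U →* ℂˣ, mn U (ex l) χ = ∑ φ : IrrCharacter U, if (φ : U → ℂ) 1 = 1 then c φ else 0 := by
    rw [Finset.sum_congr rfl fun l _ => h1 l, ← Finset.sum_filter,
      Finset.sum_subtype (p := fun φ : IrrCharacter U => (φ : U → ℂ) 1 = 1) _ (fun φ => by simp)]
    exact Fintype.sum_equiv (Characters.Linear.linearEquiv U) _ _ fun l => rfl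
  rw [h4, h5, Finset.mul_sum, ← Finset.sum_add_distrib]
  push_cast
  refine Finset.sum_congr rfl fun φ _ => ?_
  split_ifs with h6
  · rw [h6]; simp
  · rw [hk φ h6]; push_cast; ring

end abs

variable {I W Y : Type*} [Fintype I] [DecidableEq I] [Group W] [Group Y] {M : CoxeterMatrix I}
  {cs : CoxeterSystem M W} {A : I → I → ℤ} {h : IsCartan M A} {r : ℕ} {T : Subgroup Y} {n : I → Y}
  {X : (I → ℤ) → Subgroup Y}

/-- the support of a linear character of `U` -/
noncomputable def supp (X : (I → ℤ) → Subgroup Y) (l : Y → ℂ) : Finset I :=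
  Finset.univ.filter fun i => ∃ u ∈ X (sr i), l u ≠ 1

theorem mem_supp {l : Y → ℂ} {i : I} : i ∈ supp X l ↔ ∃ u ∈ X (sr i), l u ≠ 1 := by
  rw [supp, Finset.mem_filter]
  exact ⟨fun h => h.2, fun h => ⟨Finset.mem_univ _, h⟩⟩

theorem Supp.of_chr {l : Y → ℂ} (hl : Chr (RGD.Sup X (RGD.Pos cs h)) l) : Supp cs h X l (supp X l) :=
  ⟨hl, fun _ hi => mem_supp.1 hi, fun i hi u hu => by_contra fun h1 => hi (mem_supp.2 ⟨u, hu, h1⟩)⟩

variable (R : RGD cs h r T n X)

include R

/-- The number of linear characters whose support contains the proper subset `K` is divisible by `r`. -/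
theorem dvd_card_supp [Finite W] [Finite Y] (hr : r.Prime) (K : Finset I) (i : I) (hi : i ∉ K) :
    r ∣ Nat.card {l : ↥(RGD.Sup X (RGD.Pos cs h)) →* ℂˣ // K ⊆ supp X (ex l)} := by
  have : Fact r.Prime := ⟨hr⟩
  set U := RGD.Sup X (RGD.Pos cs h) with hU
  have hpU : IsPGroup r U := R.isPGroup_Upos
  have hXU : ∀ j, X (sr j) ≤ U := fun j => RGD.le_Sup (S := RGD.Pos cs h) ⟨isRoot_sr cs h j, sr_nonneg j⟩
  -- the characters supported on `i`
  let E : Subgroup (U →* ℂˣ) :=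
    { carrier := {m | ∀ j, j ≠ i → ∀ u (hu : u ∈ X (sr j)), m ⟨u, hXU j hu⟩ = 1}
      mul_mem' := fun {a b} ha hb j hj u hu => by
        rw [MonoidHom.mul_apply, ha j hj u hu, hb j hj u hu, one_mul]
      one_mem' := fun j hj u hu => rfl
      inv_mem' := fun {a} ha j hj u hu => by
        rw [MonoidHom.inv_apply, ha j hj u hu, inv_one] }
  have hEp : IsPGroup r E := by
    have h1 : IsPGroup r (U →* ℂˣ) := by
      rw [IsPGroup.iff_card]
      obtain ⟨a, ha⟩ := IsPGroup.iff_card.1 hpU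
      rw [Characters.Linear.card_hom_eq_index_commutator]
      have h2 : (commutator U).index ∣ r ^ a := by
        rw [← ha]
        exact Subgroup.index_dvd_card _
      obtain ⟨b, -, hb⟩ := (Nat.dvd_prime_pow hr).1 h2
      exact ⟨b, hb⟩
    exact h1.to_subgroup E
  -- a nontrivial element
  obtain ⟨m₀, hm₀, hm₀1⟩ : ∃ m₀ : U →* ℂˣ, m₀ ∈ E ∧ m₀ ≠ 1 := by
    obtain ⟨x, hx, hx1⟩ := exists_ne_one R i
    have hle : RGD.Sup X (RGD.PosNe cs h i) ≤ U := RGD.Sup_mono fun _ hx => ⟨hx.1, hx.2.1⟩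
    have hne : RGD.Sup X (RGD.PosNe cs h i) ≠ U := by
      intro h1
      have h2 : x ∈ RGD.Sup X (RGD.PosNe cs h i) := by rw [h1]; exact hXU i hx
      exact hx1 (eq_one_of_mem_PosNe R hx h2)
    obtain ⟨l, hl, hl1, u, hu, hu1⟩ := exists_chr hr hpU hle hne
    refine ⟨toHom hl, fun j hj v hv => ?_, fun h1 => hu1 ?_⟩
    · apply Units.ext
      rw [toHom_apply, Units.val_one]
      refine hl1 v (RGD.le_Sup (S := RGD.PosNe cs h i) ⟨isRoot_sr cs h j, sr_nonneg j, fun e => hj ?_⟩ hv)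
      by_contra hne'
      have h3 := congrFun e j
      rw [sr_self, sr_ne hne'] at h3
      exact absurd h3 (by decide)
    · have h2 : ((toHom hl ⟨u, hu⟩ : ℂˣ) : ℂ) = 1 := by rw [h1]; rfl
      rwa [toHom_apply] at h2
  -- the action
  have hmem : ∀ (m : E) (l : U →* ℂˣ), K ⊆ supp X (ex l) → K ⊆ supp X (ex ((m : U →* ℂˣ) * l)) := by
    intro m l hl j hj
    obtain ⟨u, hu, hu1⟩ := mem_supp.1 (hl hj)
    refine mem_supp.2 ⟨u, hu, ?_⟩
    have hji : j ≠ i := fun e => hi (e ▸ hj)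
    rw [ex_mem _ (hXU j hu)] at hu1 ⊢
    rwa [MonoidHom.mul_apply, m.2 j hji u hu, one_mul]
  let act : MulAction E {l : U →* ℂˣ // K ⊆ supp X (ex l)} :=
    { smul := fun m l => ⟨(m : U →* ℂˣ) * l.1, hmem m l.1 l.2⟩
      one_smul := fun l => Subtype.ext (one_mul _)
      mul_smul := fun m m' l => Subtype.ext (mul_assoc _ _ _) }
  have h1 := hEp.card_modEq_card_fixedPoints {l : U →* ℂˣ // K ⊆ supp X (ex l)}
  have h2 : IsEmpty (MulAction.fixedPoints E {l : U →* ℂˣ // K ⊆ supp X (ex l)}) := by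
    refine ⟨fun l => hm₀1 ?_⟩
    have h3 : (m₀ : U →* ℂˣ) * l.1.1 = l.1.1 := congrArg Subtype.val (l.2 ⟨m₀, hm₀⟩)
    have h4 : m₀ * l.1.1 = l.1.1 := h3
    exact (mul_eq_right (a := m₀) (b := l.1.1)).1 h4
  rw [@Nat.card_of_isEmpty _ h2, Nat.modEq_zero_iff_dvd] at h1
  exact h1

/-- **Nontrivial principal series characters have degree divisible by `r`.** -/
theorem dvd_degree_of_mn [Finite W] [Fintype Y] (hr : r.Prime) (hG : GG cs h T X = ⊤) (hC : CommGen cs h X)
    {χ : Y → ℂ} (hχ : IsIrrCharacter Y χ) (h0 : mn (RGD.B cs h T X) (fun _ => 1) χ ≠ 0) (h1 : χ ≠ 1) :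
    r ∣ charDegree χ := by
  have := Fintype.ofFinite (↥(RGD.Sup X (RGD.Pos cs h)) →* ℂˣ)
  set U := RGD.Sup X (RGD.Pos cs h) with hU
  obtain ⟨k, hk⟩ := deg_mod hr (U := U) R.isPGroup_Upos (isIrr_isCharacter hχ)
  have hd : (charDegree χ : ℂ) = ((r * k + ∑ l : U →* ℂˣ, mn U (ex l) χ : ℕ) : ℂ) := by
    rw [← hk, ← Cfsg.Agent.Blocks.Basic.irr_one_eq_charDegree hχ]
  have hd' : charDegree χ = r * k + ∑ l : U →* ℂˣ, mn U (ex l) χ := by exact_mod_cast hd
  rw [hd']
  refine dvd_add (dvd_mul_right _ _) ?_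
  rw [← Int.natCast_dvd_natCast]
  push_cast
  have h2 : ∀ l : U →* ℂˣ, (mn U (ex l) χ : ℤ) = ∑ K ∈ (Finset.univ : Finset I).powerset,
      if K ⊆ supp X (ex l) then (-1 : ℤ) ^ K.card * (mn (PJ cs h T X K) (fun _ => 1) χ : ℤ) else 0 := by
    intro l
    rw [mn_lin R hG hC (Supp.of_chr (chr_ex l)) hχ h0, ← Finset.sum_filter]
    refine Finset.sum_congr ?_ fun _ _ => rfl
    ext K
    simp
  rw [Finset.sum_congr rfl fun l _ => h2 l, Finset.sum_comm]
  refine Finset.dvd_sum fun K _ => ?_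
  rw [← Finset.sum_filter, Finset.sum_const, nsmul_eq_mul]
  by_cases hK : K = Finset.univ
  · have h3 : mn (PJ cs h T X (K : Set I)) (fun _ => 1) χ = 0 := by
      have h4 : (mn (PJ cs h T X (K : Set I)) (fun _ => 1) χ : ℂ) = 0 := by
        rw [← mn_spec (chr_one _) (isIrr_isCharacter hχ), hK, Finset.coe_univ, PJ_univ, hG, mu]
        have h5 : ∑ g : Y, (if g ∈ (⊤ : Subgroup Y) then (1 : ℂ) * χ g else 0) = 0 := by
          simp only [Subgroup.mem_top, if_true, one_mul]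
          have h6 : classInner χ 1 = 0 := classInner_irr_ne hχ isIrr_one h1
          rw [classInner_def] at h6
          rcases mul_eq_zero.1 h6 with h7 | h7
          · exact absurd h7 (inv_ne_zero card_ne_zero_complex)
          · simpa using h7
        rw [h5, mul_zero]
      exact_mod_cast h4
    rw [h3]
    simp
  · obtain ⟨i, hi⟩ : ∃ i, i ∉ K := by
      by_contra hcon
      push Not at hcon
      exact hK (Finset.eq_univ_iff_forall.2 hcon)
    have h3 := dvd_card_supp R hr K i hi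
    rw [Nat.card_eq_fintype_card, Fintype.card_subtype] at h3
    exact Dvd.dvd.mul_right (Int.natCast_dvd_natCast.2 h3) _

/-- **Nontrivial principal series characters have degree divisible by `r`.** -/
theorem dvd_degree_of_principal [Finite W] [Finite Y] (hr : r.Prime) (hG : GG cs h T X = ⊤) (hC : CommGen cs h X)
    [Fintype ↥(RGD.B cs h T X)] {χ : Y → ℂ} (hχ : IsIrrCharacter Y χ)
    (hB : ∑ b : ↥(RGD.B cs h T X), χ b ≠ 0) (h1 : χ ≠ 1) : r ∣ charDegree χ := by
  have := Fintype.ofFinite Y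
  refine dvd_degree_of_mn R hr hG hC hχ (fun h2 => hB ?_) h1
  have h3 := mn_spec (chr_one (RGD.B cs h T X)) (isIrr_isCharacter hχ)
  rw [h2, Nat.cast_zero, mu] at h3
  have h4 : ∑ g : Y, (if g ∈ RGD.B cs h T X then (1 : ℂ) * χ g else 0) = 0 := by
    rcases mul_eq_zero.1 h3 with h4 | h4
    · exact absurd h4 (inv_ne_zero card_ne_zero_complex)
    · exact h4
  rw [← h4, ← Finset.sum_filter]
  simp only [one_mul]
  refine (Finset.sum_subtype _ (fun x => ?_) _).symm
  rw [Finset.mem_filter]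
  exact ⟨fun h => h.2, fun h => ⟨Finset.mem_univ _, h⟩⟩

end Cfsg.Agent.H705.Dl.PsRgd
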