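import Cfsg.Agent.H705.Dl.PsRgd

/-!
# The multiplicities of the linear characters of `U` (helper705, task DL-PS)

`mn_lin` : `χ` an irreducible constituent of `1_B^Y`, `l` a linear character of `U` with support `D`:
`⟨χ|_U, l⟩ = ∑_{K ⊆ D} (-1)^|K| ⟨χ, 1_{P_K}^Y⟩`.
-/

set_option autoImplicit false
set_option linter.unusedSectionVars false

namespace Cfsg.Agent.H705.Dl.PsRgd

open CoxeterSystem Cfsg.Agent.ChevalleyStructure.CoxeterGeom Cfsg.Agent.Tits.Roots Cfsg.Agent.Tits.Core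
  Cfsg.Agent.Tits.Exchange Cfsg.Agent.Nodes.Reps Cfsg.Agent.Nodes.BNOf Cfsg.Agent.Nodes.StabComb
  Cfsg.Agent.Nodes.Bruhat Cfsg.Agent.Nodes.OppDec Cfsg.Agent.Nodes.LeviDec
open Cfsg Cfsg.Agent.H249 Cfsg.Agent.H249.OfRGD Cfsg.Agent.Characters.Core
open Cfsg.Agent.H705.Dl.Ps Cfsg.Agent.H705.Dl.PsCox
open Cfsg.Agent.Omega.EH3.Kf.Lev (CommGen)
open scoped commutatorElement Classical

variable {I W Y : Type*} [Fintype I] [DecidableEq I] [Group W] [Group Y] {M : CoxeterMatrix I}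
  {cs : CoxeterSystem M W} {A : I → I → ℤ} {h : IsCartan M A} {r : ℕ} {T : Subgroup Y} {n : I → Y}
  {X : (I → ℤ) → Subgroup Y}

section comap

variable {G : Type*} [Group G] [Fintype G] [Fintype Y]

theorem mu_comap (f : G →* Y) (hf : Function.Injective f) {H : Subgroup Y} (hH : ∀ y ∈ H, ∃ g, f g = y)
    (l χ : Y → ℂ) : mu (H.comap f) (fun g => l (f g)) (fun g => χ (f g)) = mu H l χ := by
  unfold mu
  congr 1
  · congr 2
    have h1 : (H.comap f).map f = H := by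
      rw [Subgroup.map_comap_eq_self]
      intro y hy
      exact hH y hy
    conv_rhs => rw [← h1]
    exact Nat.card_congr ((H.comap f).equivMapOfInjective f hf).toEquiv
  · refine Finset.sum_of_injOn f hf.injOn (fun _ _ => Finset.mem_coe.2 (Finset.mem_univ _)) ?_ ?_
    · intro y _ hy
      rw [if_neg]
      intro h1
      obtain ⟨g, rfl⟩ := hH y h1
      exact hy ⟨g, Finset.mem_coe.2 (Finset.mem_univ _), rfl⟩
    · intro g _
      simp only [Subgroup.mem_comap, map_inv]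

theorem mn_comap (f : G →* Y) (hf : Function.Injective f) {H : Subgroup Y} (hH : ∀ y ∈ H, ∃ g, f g = y)
    (l χ : Y → ℂ) : mn (H.comap f) (fun g => l (f g)) (fun g => χ (f g)) = mn H l χ := by
  unfold mn
  rw [mu_comap f hf hH]

end comap

variable (R : RGD cs h r T n X)

include R

section count

variable {G : Type*} [Group G] [Fintype G] [Fintype (IrrCharacter G)]

theorem count_nb [Finite W] (f : G →* Y) (hf : Function.Injective f) {J K L : Set I}
    (hr : ∀ y, y ∈ PJ cs h T X J ↔ ∃ g, f g = y) (hK : K ⊆ J) (hL : L ⊆ J) :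
    ∑ χ : IrrCharacter G, mn ((PJ cs h T X K).comap f) (fun _ => 1) (χ : G → ℂ) *
      mn ((PJ cs h T X L).comap f) (fun _ => 1) (χ : G → ℂ) = nb cs J K L := by
  have : Fintype {w : W // w ∈ WJ cs J ∧ IsMinL cs K w ∧ IsMinR cs L w} := Fintype.ofFinite _
  have hy : ∀ d : {w : W // w ∈ WJ cs J ∧ IsMinL cs K w ∧ IsMinR cs L w}, ∃ g, f g = rp R d.1 := fun d =>
    (hr _).1 (rp_mem_PJ R d.2.1 (rp_spec R d.1))
  choose y hy using hy
  have h1 := inner_eq ((PJ cs h T X K).comap f) ((PJ cs h T X L).comap f) y ?_ ?_ (chr_one _) (fun _ => True)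
    (fun _ _ _ _ _ => rfl) (fun _ h => absurd trivial h)
  · rw [h1]
    unfold nb
    exact Nat.card_congr (Equiv.subtypeUnivEquiv fun _ => trivial)
  · intro x
    obtain ⟨d, hd, h1, h2, a, ha, b, hb, e⟩ := dc_cover R hK hL ((hr (f x)).2 ⟨x, rfl⟩)
    obtain ⟨a', rfl⟩ := (hr a).1 (PJ_mono R hK ha)
    obtain ⟨b', rfl⟩ := (hr b).1 (PJ_mono R hL hb)
    refine ⟨⟨d, hd, h1, h2⟩, a', ha, b', hb, hf ?_⟩
    rw [e, map_mul, map_mul, hy]
  · rintro d d' ⟨a, ha, b, hb, e⟩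
    refine Subtype.ext (dc_uniq R d.2.2.1 d'.2.2.1 d.2.2.2 d'.2.2.2 ha hb ?_)
    have := congrArg f e
    rwa [map_mul, map_mul, hy, hy] at this

theorem count_nr [Finite W] (f : G →* Y) (hf : Function.Injective f) {J L : Set I} {D : Finset I}
    (hr : ∀ y, y ∈ PJ cs h T X J ↔ ∃ g, f g = y) (hL : L ⊆ J) (hcase : L = ∅ ∨ J = D) {l : Y → ℂ}
    (hl : Supp cs h X l D) (hC : CommGen cs h X) :
    ∑ χ : IrrCharacter G, mn ((RGD.Sup X (RGD.Pos cs h)).comap f) (fun g => l (f g)) (χ : G → ℂ) *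
      mn ((PJ cs h T X L).comap f) (fun _ => 1) (χ : G → ℂ) = nr cs J D L := by
  have : Fintype {w : W // w ∈ WJ cs J ∧ IsMinR cs L w} := Fintype.ofFinite _
  have hy : ∀ d : {w : W // w ∈ WJ cs J ∧ IsMinR cs L w}, ∃ g, f g = rp R d.1 := fun d =>
    (hr _).1 (rp_mem_PJ R d.2.1 (rp_spec R d.1))
  choose y hy using hy
  have hchr : Chr ((RGD.Sup X (RGD.Pos cs h)).comap f) (fun g => l (f g)) :=
    ⟨by rw [map_one]; exact hl.chr.one, fun u hu v hv => by rw [map_mul]; exact hl.chr.mul _ hu _ hv⟩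
  have hconj : ∀ d u, f ((y d)⁻¹ * u * y d) = (rp R d.1)⁻¹ * f u * rp R d.1 := by
    intro d u
    rw [map_mul, map_mul, map_inv, hy]
  have hUP : RGD.Sup X (RGD.Pos cs h) ≤ PJ cs h T X J := RGD.U_le_B.trans B_le_PJ
  have h1 := inner_eq ((RGD.Sup X (RGD.Pos cs h)).comap f) ((PJ cs h T X L).comap f) y ?_ ?_ hchr
    (fun d => ∀ j ∈ D, ¬ cs.length d.1 < cs.length (cs.simple j * d.1)) ?_ ?_
  · rw [h1]
    unfold nr
    refine Nat.card_congr
      { toFun := fun d => ⟨d.1.1, d.1.2.1, fun j hj => d.2 j (Finset.mem_coe.1 hj), d.1.2.2⟩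
        invFun := fun w => ⟨⟨w.1, w.2.1, w.2.2.2⟩, fun j hj => w.2.2.1 j (Finset.mem_coe.2 hj)⟩
        left_inv := fun _ => rfl
        right_inv := fun _ => rfl }
  · intro x
    obtain ⟨d, hd, h2, u, hu, b, hb, e⟩ := dc_cover_U R hL ((hr (f x)).2 ⟨x, rfl⟩)
    obtain ⟨u', rfl⟩ := (hr u).1 (hUP hu)
    obtain ⟨b', rfl⟩ := (hr b).1 (PJ_mono R hL hb)
    refine ⟨⟨d, hd, h2⟩, u', hu, b', hb, hf ?_⟩
    rw [e, map_mul, map_mul, hy]
  · rintro d d' ⟨u, hu, b, hb, e⟩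
    have hE : ∀ w : W, IsMinL cs (∅ : Set I) w := by
      intro w
      rw [isMinL_iff]
      exact fun i hi => absurd hi (Set.notMem_empty i)
    refine Subtype.ext (dc_uniq R (K := ∅) (hE _) (hE _) d.2.2 d'.2.2
      (a := f u) (by rw [PJ_empty R]; exact RGD.U_le_B hu) hb ?_)
    have := congrArg f e
    rwa [map_mul, map_mul, hy, hy] at this
  · intro d hd u hu huL
    rw [Subgroup.mem_comap, hconj] at huL
    by_cases hL0 : L = ∅
    · have hLB : PJ cs h T X L = RGD.B cs h T X := by rw [hL0, PJ_empty R]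
      rw [hLB] at huL
      exact good R hl hC (rp_spec R d.1) hd hu huL
    · exfalso
      have hJ : J = D := hcase.resolve_left hL0
      have h2 : d.1 = wJ cs J := eq_longest d.2.1 fun j hj => hd j (by rw [hJ] at hj; exact hj)
      obtain ⟨i, hi⟩ := Set.nonempty_iff_ne_empty.2 hL0
      have h3 := (isMinR_iff cs).1 d.2.2 i hi
      have h4 := ((isLongest_wJ cs J).2 _ (simple_mem_WJ cs (hL hi))).1
      rw [h2] at h3
      omega
  · intro d hd
    push Not at hd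
    obtain ⟨j, hj, h2⟩ := hd
    obtain ⟨u, hu, h3, h4⟩ := bad R hl (rp_spec R d.1) hj h2
    obtain ⟨u', rfl⟩ := (hr u).1 (hUP hu)
    refine ⟨u', hu, ?_, h4⟩
    rw [Subgroup.mem_comap, hconj]
    exact B_le_PJ h3

end count

/-- **The inequality.** -/
theorem mn_ge [Finite W] [Fintype Y] {l : Y → ℂ} {D : Finset I} (hl : Supp cs h X l D) (hC : CommGen cs h X)
    {χ : Y → ℂ} (hχ : IsCharacter Y χ) :
    ∑ K ∈ D.powerset, (-1 : ℤ) ^ K.card * (mn (PJ cs h T X K) (fun _ => 1) χ : ℤ) ≤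
      mn (RGD.Sup X (RGD.Pos cs h)) l χ := by
  set P : Subgroup Y := PJ cs h T X (D : Set I) with hP
  have := finite_irr (G := P)
  have := Fintype.ofFinite (IrrCharacter P)
  have hf : Function.Injective P.subtype := P.subtype_injective
  have hr : ∀ y, y ∈ PJ cs h T X (D : Set I) ↔ ∃ g : P, P.subtype g = y := fun y =>
    ⟨fun hy => ⟨⟨y, hy⟩, rfl⟩, fun ⟨g, hg⟩ => hg ▸ g.2⟩
  have hψ : IsCharacter P (fun g => χ (P.subtype g)) := isCharacter_comp P.subtype hχ
  have hchr : Chr ((RGD.Sup X (RGD.Pos cs h)).comap P.subtype) (fun g => l (P.subtype g)) :=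
    ⟨by rw [map_one]; exact hl.chr.one, fun u hu v hv => by rw [map_mul]; exact hl.chr.mul _ hu _ hv⟩
  have h1 := mult_ge (G := P) D.powerset (fun K => (-1 : ℤ) ^ K.card)
    (fun K => (PJ cs h T X (K : Set I)).comap P.subtype) ((RGD.Sup X (RGD.Pos cs h)).comap P.subtype) hchr ?_ ?_ hψ
  · rw [mn_comap P.subtype hf (fun y hy => (hr y).1 ((RGD.U_le_B.trans B_le_PJ) hy)) l χ] at h1
    refine le_trans (le_of_eq (Finset.sum_congr rfl fun K hK => ?_)) h1
    rw [Finset.mem_powerset] at hK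
    rw [mn_comap P.subtype hf (fun y hy => (hr y).1 (PJ_mono R (Finset.coe_subset.2 hK) hy)) (fun _ => 1) χ]
  · have h2 : ∀ K ∈ D.powerset, ∀ L ∈ D.powerset,
        ((∑ χ : IrrCharacter P, mn ((PJ cs h T X (K : Set I)).comap P.subtype) (fun _ => 1) (χ : P → ℂ) *
          mn ((PJ cs h T X (L : Set I)).comap P.subtype) (fun _ => 1) (χ : P → ℂ) : ℕ) : ℤ) =
          nb cs (D : Set I) K L := by
      intro K hK L hL
      rw [Finset.mem_powerset] at hK hL
      rw [count_nb R P.subtype hf hr (Finset.coe_subset.2 hK) (Finset.coe_subset.2 hL)]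
    rw [Finset.sum_comm]
    have h3 : ∀ L ∈ D.powerset, ∑ K ∈ D.powerset, (-1 : ℤ) ^ K.card * (-1 : ℤ) ^ L.card *
        ((∑ χ : IrrCharacter P, mn ((PJ cs h T X (K : Set I)).comap P.subtype) (fun _ => 1) (χ : P → ℂ) *
          mn ((PJ cs h T X (L : Set I)).comap P.subtype) (fun _ => 1) (χ : P → ℂ) : ℕ) : ℤ) =
          (-1 : ℤ) ^ L.card * nr cs (D : Set I) D L := by
      intro L hL
      rw [← sum_nb_left (cs := cs) (D : Set I) L D, Finset.mul_sum]
      refine Finset.sum_congr rfl fun K hK => ?_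
      rw [h2 K hK L hL]
      ring
    rw [Finset.sum_congr rfl h3]
    exact sum_nr (D : Set I) D rfl
  · refine Eq.trans ?_ (sum_nr (cs := cs) (D : Set I) D rfl)
    refine Finset.sum_congr rfl fun L hL => ?_
    rw [Finset.mem_powerset] at hL
    rw [count_nr R P.subtype hf hr (Finset.coe_subset.2 hL) (Or.inr rfl) hl hC]

/-- **The multiplicities of the linear characters.** -/
theorem mn_lin [Finite W] [Fintype Y] (hG : GG cs h T X = ⊤) (hC : CommGen cs h X) {l : Y → ℂ} {D : Finset I}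
    (hl : Supp cs h X l D) {χ : Y → ℂ} (hχ : IsIrrCharacter Y χ) (h0 : mn (RGD.B cs h T X) (fun _ => 1) χ ≠ 0) :
    (mn (RGD.Sup X (RGD.Pos cs h)) l χ : ℤ) =
      ∑ K ∈ D.powerset, (-1 : ℤ) ^ K.card * (mn (PJ cs h T X K) (fun _ => 1) χ : ℤ) := by
  have := finite_irr (G := Y)
  have := Fintype.ofFinite (IrrCharacter Y)
  have hr : ∀ y, y ∈ PJ cs h T X (Set.univ : Set I) ↔ ∃ g : Y, MonoidHom.id Y g = y := fun y => by
    rw [PJ_univ, hG]
    exact ⟨fun _ => ⟨y, rfl⟩, fun _ => Subgroup.mem_top y⟩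
  have hinj : Function.Injective (MonoidHom.id Y) := fun _ _ e => e
  refine eq_of_sum_eq D.powerset (fun K => (-1 : ℤ) ^ K.card) (fun K => PJ cs h T X (K : Set I))
    (RGD.Sup X (RGD.Pos cs h)) (PJ cs h T X (∅ : Set I)) (l := l) (N := nr cs Set.univ D ∅)
    (fun χ => mn_ge R hl hC (isIrr_isCharacter χ.2)) ?_ ?_ ⟨χ, hχ⟩ (by rw [PJ_empty R]; exact h0)
  · have h1 := count_nr (G := Y) R (MonoidHom.id Y) hinj hr (L := ∅) (Set.empty_subset _) (Or.inl rfl) hl hC
    exact_mod_cast h1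
  · rw [← sum_nb_left (cs := cs) Set.univ ∅ D]
    refine Finset.sum_congr rfl fun K _ => ?_
    have h1 := count_nb (G := Y) R (MonoidHom.id Y) hinj hr (K := K) (L := ∅) (Set.subset_univ _)
      (Set.empty_subset _)
    congr 1
    exact_mod_cast h1

end Cfsg.Agent.H705.Dl.PsRgd
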